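import Cfsg.Agent.Lib.Helper21.Uni.Defs
import Mathlib

set_option autoImplicit false

/-! helper21's farm Uni wave 2 (S5994): pieces M1 M2 M3 (helper12) -/

namespace Cfsg.Agent.Lib.Helper12.Uni

open Matrix Module Cfsg.Agent.Lib.Helper67.Elus Cfsg.Agent.Lib.Helper21.Uni

variable {F : Type*} [Field F]
variable {I J : Type} [Fintype I] [Fintype J] [DecidableEq I] [DecidableEq J]

/-- M1 -/
theorem cg_swap (X : Matrix I I F) (Y : Matrix J J F) : Cg (bs X Y) (bs Y X) := by
  refine ⟨fromBlocks 0 1 1 0, fromBlocks 0 1 1 0, ?_, ?_, ?_⟩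
  · rw [fromBlocks_multiply]
    simp [fromBlocks_one]
  · rw [fromBlocks_multiply]
    simp [fromBlocks_one]
  · rw [fromBlocks_transpose, fromBlocks_multiply, fromBlocks_multiply]
    simp

/-- M2 -/
theorem cg_binary (h2 : (2 : F) ≠ 0) (a b : F) :
    Cg (bs (Ln (2 : F)) (Ln (2 * b - a ^ 2 / 2))) (!![2, a; a, 2 * b] : Matrix (Fin 2) (Fin 2) F) := by
  refine ⟨Matrix.of (fun (i : Unit ⊕ Unit) (j : Fin 2) =>
      Sum.elim (fun _ => (![1, a / 2] : Fin 2 → F) j) (fun _ => (![0, 1] : Fin 2 → F) j) i),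
    Matrix.of (fun (i : Fin 2) (j : Unit ⊕ Unit) =>
      Sum.elim (fun _ => (![1, 0] : Fin 2 → F) i) (fun _ => (![-a / 2, 1] : Fin 2 → F) i) j),
    ?_, ?_, ?_⟩
  · ext i j
    rcases i with i | i <;> rcases j with j | j <;>
      simp [Matrix.mul_apply, Fin.sum_univ_two, Matrix.one_apply] <;> ring
  · ext i j
    fin_cases i <;> fin_cases j <;>
      simp [Matrix.mul_apply, Fintype.sum_sum_type, Matrix.one_apply] <;> ring
  · ext i j
    fin_cases i <;> fin_cases j <;>
      simp [Matrix.mul_apply, Fintype.sum_sum_type, Ln, Matrix.transpose_apply] <;>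
      field_simp <;> ring

/-- M3 -/
theorem exists_odd_pair {μ : Multiset ℕ} (hA : Adm μ) (hs : Even μ.sum) {e : ℕ} (he : e ∈ μ)
    (ho : Odd e) :
    ∃ (e' : ℕ) (μ' : Multiset ℕ), μ = {e, e'} + μ' ∧ Odd e' ∧ Adm μ' ∧ Even μ'.sum := by
  obtain ⟨μ₁, rfl⟩ := Multiset.exists_cons_of_mem he
  rw [Multiset.sum_cons] at hs
  have h1 : Odd μ₁.sum := by
    by_contra h
    rw [Nat.not_odd_iff_even] at h
    exact (Nat.not_even_iff_odd.2 (ho.add_even h)) hs
  obtain ⟨e', he', ho'⟩ : ∃ e' ∈ μ₁, Odd e' := by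
    by_contra hcon
    push Not at hcon
    have : 2 ∣ μ₁.sum := Multiset.dvd_sum (fun x hx => by
      have := hcon x hx
      rw [Nat.not_odd_iff_even] at this
      exact this.two_dvd)
    exact (Nat.not_even_iff_odd.2 h1) (even_iff_two_dvd.2 this)
  obtain ⟨μ', rfl⟩ := Multiset.exists_cons_of_mem he'
  refine ⟨e', μ', ?_, ho', ?_, ?_⟩
  · rw [Multiset.insert_eq_cons, Multiset.cons_add, Multiset.singleton_add]
  · intro x hx
    have h := hA x hx
    have hxe : x ≠ e := by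
      rintro rfl
      exact (Nat.not_even_iff_odd.2 ho) hx
    have hxe' : x ≠ e' := by
      rintro rfl
      exact (Nat.not_even_iff_odd.2 ho') hx
    rwa [Multiset.count_cons_of_ne hxe, Multiset.count_cons_of_ne hxe'] at h
  · rw [Multiset.sum_cons] at h1
    by_contra h
    rw [Nat.not_even_iff_odd] at h
    exact (Nat.not_odd_iff_even.2 (ho'.add_odd h)) h1

end Cfsg.Agent.Lib.Helper12.Uni
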